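import Cfsg.Agent.H672.Over
import Cfsg.Agent.H669.Basic
import Cfsg.Agent.S0188
import Cfsg.Agent.StandardComponent.AltAut
import Cfsg.Agent.H686.CharKit

/-!
# Central extensions of `A_n` inside a group with abelian top (S4766)

`P ⊲ G` perfect, `G' ≤ P`, `P / Z = A_n` with `Z` central in `P` of exponent 2: above every irreducible character `θ` of `P`
there is an irreducible character of `G` of degree `2^i θ(1)`.
-/

set_option autoImplicit false
set_option linter.unusedSectionVars false
set_option linter.style.haveILetI false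

universe u v

namespace Cfsg.Agent.H211.Hup

open Cfsg Cfsg.Agent.Characters.Core Cfsg.Agent.H686.CharKit Cfsg.Agent.H672
open Equiv Subgroup

section Ext

variable {G : Type u} [Group G] {n : ℕ} {P : Subgroup G} [hPn : P.Normal] {f : P →* alternatingGroup (Fin n)}

theorem ker_eq_center (hn : 7 ≤ n) (hf : Function.Surjective f) (hc : f.ker ≤ center P) : f.ker = center P := by
  apply le_antisymm hc
  intro x hx
  have h1 : f x ∈ center (alternatingGroup (Fin n)) := by
    rw [mem_center_iff]
    intro y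
    obtain ⟨y, rfl⟩ := hf y
    rw [← map_mul, ← map_mul, mem_center_iff.1 hx y]
  rw [alternatingGroup.center_eq_bot (by rw [Nat.card_eq_fintype_card, Fintype.card_fin]; omega)] at h1
  exact h1

theorem conj_ker (hn : 7 ≤ n) (hf : Function.Surjective f) (hc : f.ker ≤ center P) (g : G) {x : P} (hx : x ∈ f.ker) :
    (MulAut.conjNormal g : MulAut P) x ∈ f.ker := by
  rw [ker_eq_center hn hf hc] at hx ⊢
  rw [mem_center_iff] at hx ⊢
  intro y
  have h1 := hx ((MulAut.conjNormal g : MulAut P)⁻¹ y)
  have h2 := congrArg (MulAut.conjNormal g : MulAut P) h1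
  rw [map_mul, map_mul, MulAut.apply_inv_self] at h2
  exact h2

/-- the action of `G` on `A_n` -/
theorem exists_alpha (hn : 7 ≤ n) (hf : Function.Surjective f) (hc : f.ker ≤ center P) :
    ∃ α : G →* MulAut (alternatingGroup (Fin n)), ∀ (g : G) (x : P), α g (f x) = f (MulAut.conjNormal g x) := by
  have h1 : ∀ g : G, ∃ φ : alternatingGroup (Fin n) →* alternatingGroup (Fin n),
      ∀ x, φ (f x) = f (MulAut.conjNormal g x) := by
    intro g
    refine ⟨f.liftOfSurjective hf ⟨f.comp (MulAut.conjNormal g : MulAut P).toMonoidHom, ?_⟩, fun x => ?_⟩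
    · intro x hx
      exact conj_ker hn hf hc g hx
    · exact f.liftOfRightInverse_comp_apply _ _
        ⟨f.comp (MulAut.conjNormal g : MulAut P).toMonoidHom, fun x hx => conj_ker hn hf hc g hx⟩ x
  choose φ hφ using h1
  have h2 : ∀ (g h : G) (y : alternatingGroup (Fin n)), φ g (φ h y) = φ (g * h) y := by
    intro g h y
    obtain ⟨x, rfl⟩ := hf y
    rw [hφ, hφ, hφ, map_mul]
    rfl
  have h3 : ∀ y : alternatingGroup (Fin n), φ 1 y = y := by
    intro y
    obtain ⟨x, rfl⟩ := hf y
    rw [hφ, map_one]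
    rfl
  refine ⟨{ toFun := fun g => { toFun := φ g, invFun := φ g⁻¹, left_inv := fun y => ?_, right_inv := fun y => ?_,
                                map_mul' := map_mul _ }, map_one' := ?_, map_mul' := ?_ }, fun g x => hφ g x⟩
  · rw [h2, inv_mul_cancel, h3]
  · rw [h2, mul_inv_cancel, h3]
  · apply MulEquiv.ext
    intro y
    exact h3 y
  · intro g h
    apply MulEquiv.ext
    intro y
    exact (h2 g h y).symm

/-- elements acting trivially on `P / Z(P)` centralise the perfect group `P` -/
theorem mem_centralizer_of (hPP : ⁅P, P⁆ = P) (hc : f.ker ≤ center P) {g : G}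
    (hg : ∀ x : P, f (MulAut.conjNormal g x) = f x) : g ∈ centralizer (P : Set G) := by
  have hcen : ∀ x : P, (MulAut.conjNormal g : MulAut P) x * x⁻¹ ∈ center P := by
    intro x
    apply hc
    rw [MonoidHom.mem_ker, map_mul, map_inv, hg, mul_inv_cancel]
  let δ : P →* center P :=
    { toFun := fun x => ⟨(MulAut.conjNormal g : MulAut P) x * x⁻¹, hcen x⟩
      map_one' := by
        apply Subtype.ext
        simp
      map_mul' := by
        intro x y
        apply Subtype.ext
        show (MulAut.conjNormal g : MulAut P) (x * y) * (x * y)⁻¹ =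
          ((MulAut.conjNormal g : MulAut P) x * x⁻¹) * ((MulAut.conjNormal g : MulAut P) y * y⁻¹)
        have h1 := mem_center_iff.1 (hcen y) x
        rw [map_mul, mul_inv_rev]
        calc (MulAut.conjNormal g : MulAut P) x * (MulAut.conjNormal g : MulAut P) y * (y⁻¹ * x⁻¹)
            = (MulAut.conjNormal g : MulAut P) x * ((MulAut.conjNormal g : MulAut P) y * y⁻¹) * x⁻¹ := by group
          _ = (MulAut.conjNormal g : MulAut P) x * (x⁻¹ * (x * ((MulAut.conjNormal g : MulAut P) y * y⁻¹))) * x⁻¹ := by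
              group
          _ = (MulAut.conjNormal g : MulAut P) x * (x⁻¹ * (((MulAut.conjNormal g : MulAut P) y * y⁻¹) * x)) * x⁻¹ := by
              rw [h1]
          _ = ((MulAut.conjNormal g : MulAut P) x * x⁻¹) * ((MulAut.conjNormal g : MulAut P) y * y⁻¹) := by group }
  have h1 : commutator P ≤ δ.ker := by
    rw [_root_.commutator_def, commutator_le]
    intro a _ b _
    rw [MonoidHom.mem_ker, map_commutatorElement, commutatorElement_eq_one_iff_mul_comm]
    exact Subtype.ext (mem_center_iff.1 (δ b).2 _)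
  have h2 : commutator P = ⊤ := by
    have h3 : (commutator P).map P.subtype = ⁅P, P⁆ := map_subtype_commutator P
    rw [hPP] at h3
    rw [eq_top_iff]
    intro x _
    have h4 : (x : G) ∈ (commutator P).map P.subtype := by rw [h3]; exact x.2
    obtain ⟨y, hy, hyx⟩ := h4
    have : y = x := Subtype.ext hyx
    rwa [← this]
  rw [mem_centralizer_iff]
  intro x hx
  have h3 : (⟨x, hx⟩ : P) ∈ δ.ker := h1 (by rw [h2]; trivial)
  have h4 := congrArg (fun z : center P => ((z : P) : G)) h3
  have h5 : g * x * g⁻¹ * x⁻¹ = 1 := h4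
  rw [mul_inv_eq_one, mul_inv_eq_iff_eq_mul] at h5
  exact h5.symm

theorem index_dvd_two (hn : 7 ≤ n) (hPP : ⁅P, P⁆ = P) (hf : Function.Surjective f) (hc : f.ker ≤ center P) :
    (P ⊔ centralizer (P : Set G)).index ∣ 2 := by
  obtain ⟨α, hα⟩ := exists_alpha hn hf hc
  obtain ⟨ψ, hψ⟩ := Cfsg.Agent.StandardComponent.AltAut.exists_autHom n hn
  let β : G →* Perm (Fin n) := ψ.comp α
  have h1 : (alternatingGroup (Fin n)).comap β ≤ P ⊔ centralizer (P : Set G) := by
    intro g hg
    obtain ⟨x, hx⟩ := hf ⟨β g, hg⟩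
    have hx' : (f x : Perm (Fin n)) = β g := by rw [hx]
    have h2 : (x : G)⁻¹ * g ∈ centralizer (P : Set G) := by
      apply mem_centralizer_of hPP hc
      intro y
      have h3 : f (MulAut.conjNormal g y) = f x * f y * (f x)⁻¹ := by
        apply Subtype.ext
        rw [← hα, hψ]
        show β g * (f y : Perm (Fin n)) * (β g)⁻¹ = f x * f y * (f x : Perm (Fin n))⁻¹
        rw [hx']
      have h4 : (MulAut.conjNormal ((x : G)⁻¹ * g) : MulAut P) y = x⁻¹ * (MulAut.conjNormal g : MulAut P) y * x := by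
        apply Subtype.ext
        rw [MulAut.conjNormal_apply]
        push_cast
        rw [MulAut.conjNormal_apply]
        group
      rw [h4, map_mul, map_mul, h3, map_inv]
      group
    have h5 : g = x * ((x : G)⁻¹ * g) := by group
    rw [h5]
    exact mul_mem_sup x.2 h2
  refine (index_dvd_of_le h1).trans ?_
  rw [index_comap]
  have h6 : (alternatingGroup (Fin n)).index = 2 := by
    have : Nontrivial (Fin n) := Fin.nontrivial_iff_two_le.2 (by omega)
    exact alternatingGroup.index_eq_two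
  rw [← h6]
  exact relIndex_dvd_index_of_normal _ _

end Ext

section Pow

variable {G : Type u} [Group G] [Finite G] {n : ℕ} {P : Subgroup G} [hPn : P.Normal]
  {f : P →* alternatingGroup (Fin n)}

/-- The degrees of the centraliser are powers of two. -/
theorem pow_centralizer (hn : 7 ≤ n) (hGP : commutator G ≤ P) (hf : Function.Surjective f) (hc : f.ker ≤ center P)
    (h2 : ∀ x ∈ f.ker, x * x = 1) {κ : centralizer (P : Set G) → ℂ} (hκ : IsIrrCharacter (centralizer (P : Set G)) κ) :
    ∃ a, charDegree κ = 2 ^ a := by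
  let K := centralizer (P : Set G)
  have hcomm : ∀ a b : K, (a * b * a⁻¹ * b⁻¹) * (a * b * a⁻¹ * b⁻¹) = 1 ∧ ∀ c : K, c * (a * b * a⁻¹ * b⁻¹) =
      (a * b * a⁻¹ * b⁻¹) * c := by
    intro a b
    have h3 : ((a * b * a⁻¹ * b⁻¹ : K) : G) ∈ P := by
      apply hGP
      exact commutator_mem_commutator (mem_top (a : G)) (mem_top (b : G))
    have h4 : (⟨_, h3⟩ : P) ∈ center P := by
      rw [mem_center_iff]
      intro y
      apply Subtype.ext
      exact mem_centralizer_iff.1 (a * b * a⁻¹ * b⁻¹ : K).2 y y.2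
    rw [← ker_eq_center hn hf hc] at h4
    refine ⟨Subtype.ext ?_, fun c => Subtype.ext ?_⟩
    · exact congrArg (fun z : P => (z : G)) (h2 _ h4)
    · exact (mem_centralizer_iff.1 c.2 _ h3).symm
  have hsq : ∀ a : K, a * a ∈ center K := by
    intro a
    rw [mem_center_iff]
    intro b
    obtain ⟨h3, h4⟩ := hcomm a b
    have h5 : a * a * b = (a * b * a⁻¹ * b⁻¹) * (a * b * a⁻¹ * b⁻¹) * (b * (a * a)) := by
      have h6 : a * b = (a * b * a⁻¹ * b⁻¹) * (b * a) := by group
      calc a * a * b = a * (a * b) := by group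
        _ = a * ((a * b * a⁻¹ * b⁻¹) * (b * a)) := by rw [← h6]
        _ = (a * (a * b * a⁻¹ * b⁻¹)) * (b * a) := by group
        _ = ((a * b * a⁻¹ * b⁻¹) * a) * (b * a) := by rw [h4 a]
        _ = (a * b * a⁻¹ * b⁻¹) * (a * b) * a := by group
        _ = (a * b * a⁻¹ * b⁻¹) * ((a * b * a⁻¹ * b⁻¹) * (b * a)) * a := by rw [← h6]
        _ = _ := by group
    rw [h5, h3, one_mul]
  have hp : IsPGroup 2 (K ⧸ center K) := by
    intro q
    obtain ⟨x, rfl⟩ := QuotientGroup.mk_surjective q
    refine ⟨1, ?_⟩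
    rw [pow_one, ← QuotientGroup.mk_pow, QuotientGroup.eq_one_iff, pow_two]
    exact hsq x
  have : Fact (Nat.Prime 2) := ⟨Nat.prime_two⟩
  obtain ⟨m, hm⟩ := IsPGroup.iff_card.1 hp
  have h7 := Cfsg.Agent.H669.Basic.charDegree_dvd_index_center hκ
  rw [index_eq_card, hm] at h7
  obtain ⟨a, -, ha⟩ := (Nat.dvd_prime_pow Nat.prime_two).1 h7
  exact ⟨a, ha⟩

/-- **The degrees above a character of `P`.** -/
theorem exists_pow (hn : 7 ≤ n) (hGP : commutator G ≤ P) (hPP : ⁅P, P⁆ = P) (hf : Function.Surjective f)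
    (hc : f.ker ≤ center P) (h2 : ∀ x ∈ f.ker, x * x = 1) {θ : P → ℂ} (hθ : IsIrrCharacter P θ) :
    ∃ (χ : IrrCharacter G) (i : ℕ), charDegree (χ : G → ℂ) = 2 ^ i * charDegree θ := by
  classical
  obtain ⟨χ, hχ, ho⟩ := exists_over_subtype P hθ
  set K := centralizer (P : Set G) with hK
  set M := P ⊔ K with hM
  have hMn : M.Normal := by
    have : K.Normal := inferInstance
    infer_instance
  let i1 : P →* M := Subgroup.inclusion le_sup_left
  let i2 : K →* M := Subgroup.inclusion le_sup_right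
  have hcomp : P.subtype = M.subtype.comp i1 := by ext; rfl
  rw [hcomp, over_comp_iff _ _ (isIrr_isCharacter hχ) hθ] at ho
  obtain ⟨ξ, hξ, ho1, ho2⟩ := ho
  obtain ⟨h3, h4⟩ := charDegree_dvd_of_over M hχ hξ ho1
  have h5 := h4.trans (index_dvd_two hn hPP hf hc)
  -- the product map
  have hcom : ∀ (x : P) (y : K), Commute (i1 x) (i2 y) := by
    intro x y
    apply Subtype.ext
    exact mem_centralizer_iff.1 y.2 x x.2
  let m : P × K →* M := MonoidHom.noncommCoprod i1 i2 hcom
  have hm : ∀ x y, m (x, y) = i1 x * i2 y := fun _ _ => rfl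
  have hms : Function.Surjective m := by
    rintro ⟨g, hg⟩
    rw [hM, mem_sup_of_normal_right] at hg
    obtain ⟨x, hx, y, hy, hxy⟩ := hg
    exact ⟨(⟨x, hx⟩, ⟨y, hy⟩), Subtype.ext hxy⟩
  have hirr := isIrr_comp m hms hξ
  obtain ⟨θ', κ, hθ', hκ, he⟩ := (S0188.result _).1 hirr
  have he' : ∀ x y, ξ (i1 x * i2 y) = θ' x * κ y := fun x y => congrFun he (x, y)
  have h6 : ξ ∘ i1 = (κ 1) • θ' := by
    funext x
    have := he' x 1
    rw [map_one, mul_one] at this
    rw [Function.comp, this, Pi.smul_apply, smul_eq_mul, mul_comm]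
  have h7 : θ' = θ := by
    by_contra hne
    have := Fintype.ofFinite P
    rw [over_iff, h6, classInner_smul_left, classInner_irr_ne hθ' hθ hne, mul_zero] at ho2
    exact ho2 rfl
  obtain ⟨a, ha⟩ := pow_centralizer hn hGP hf hc h2 hκ
  have h8 : charDegree ξ = 2 ^ a * charDegree θ := by
    apply charDegree_of_eq
    have h9 := he' 1 1
    rw [map_one, map_one, mul_one] at h9
    rw [h9, h7, ← coe_charDegree hθ, ← coe_charDegree hκ, ha]
    push_cast
    ring
  obtain ⟨t, ht⟩ := h3
  have hpos : 0 < charDegree ξ := charDegree_pos hξ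
  rw [ht, Nat.mul_div_cancel_left _ hpos] at h5
  rcases (Nat.dvd_prime Nat.prime_two).1 h5 with h10 | h10
  · exact ⟨⟨χ, hχ⟩, a, by show charDegree χ = _; rw [ht, h8, h10, mul_one]⟩
  · exact ⟨⟨χ, hχ⟩, a + 1, by show charDegree χ = _; rw [ht, h8, h10, pow_succ]; ring⟩

end Pow

end Cfsg.Agent.H211.Hup
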